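import Cfsg.Agent.FusionCrit.Normalizer

/-!
A simplicity criterion in which the subgroups used to generate the automizer of `S` only need to be
centric: neither normal in `S` nor fully normalized.
-/

set_option autoImplicit false

open Cfsg Cfsg.FusionSystem Cfsg.Agent.FusionSys

namespace Cfsg.Agent.FusionCrit

variable {G : Type*} [Group G] [Finite G] {p : ℕ} [Fact p.Prime] (S : Sylow p G)

/-- For any `R ≤ S`, conjugation on `R` by an element of the subgroup generated by the `p`-elements of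
`N_G(R)` lies in every invariant subsystem on `S`. -/
lemma conjHom_mem_of_closure' {E : FusionSystem (S : Subgroup G)}
    (hE : E.IsInvariantIn (groupFusionSystem (S : Subgroup G))) {R : Subgroup G}
    (hRS : R ≤ (S : Subgroup G)) {g : G}
    (hg : g ∈ Subgroup.closure
      {g : G | g ∈ Subgroup.normalizer (R : Set G) ∧ ∃ k : ℕ, orderOf g = p ^ k}) :
    g ∈ Subgroup.normalizer (R : Set G) ∧ conjHom R g ∈ E.Hom R := by
  obtain ⟨-, -, -, hfrat⟩ := hE
  induction hg using Subgroup.closure_induction with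
  | one => exact ⟨one_mem _, E.conj_mem hRS (one_mem _)⟩
  | mul x y _ _ hx hy =>
    refine ⟨mul_mem hx.1 hy.1, comp_mem' E hy.2 hx.2
      (fun r => ((Subgroup.mem_normalizer_iff.1 hy.1) _).1 r.2) fun r => ?_⟩
    simp only [conjHom_apply]
    group
  | inv x _ hx =>
    have hr : (conjHom R x).range = R := by
      ext z
      constructor
      · rintro ⟨y, rfl⟩
        exact (Subgroup.mem_normalizer_iff.1 hx.1 _).1 y.2
      · intro hz
        refine ⟨⟨x⁻¹ * z * x, (Subgroup.mem_normalizer_iff.1 hx.1 _).2 ?_⟩, ?_⟩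
        · simpa [mul_assoc] using hz
        · simp [mul_assoc]
    obtain ⟨ψ, hψ, hψx⟩ := E.inv_mem hx.2
    refine ⟨inv_mem hx.1, mem_of_restricts E hr.ge hψ fun y => ?_⟩
    have := hψx ⟨x⁻¹ * y * x, by
      simpa using (Subgroup.mem_normalizer_iff.1 (inv_mem hx.1) (y : G)).1 y.2⟩
    rw [conjHom_apply, inv_inv]
    refine this.symm.trans (congrArg ψ (Subtype.ext ?_))
    simp [mul_assoc]
  | mem x hx =>
    obtain ⟨hxR, k, hk⟩ := hx
    refine ⟨hxR, ?_⟩
    have hz : IsPGroup p (Subgroup.zpowers x) :=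
      IsPGroup.of_card (n := k) (by rw [Nat.card_zpowers, hk])
    obtain ⟨Q, hQ⟩ := (IsPGroup.to_sup_of_normal_right' hz (S.2.to_le hRS)
      (Subgroup.zpowers_le.2 hxR)).exists_le_sylow
    obtain ⟨h, hh⟩ := MulAction.exists_smul_eq G Q S
    have hmem : ∀ y, y ∈ Subgroup.zpowers x ⊔ R → h * y * h⁻¹ ∈ (S : Subgroup G) := fun y hy => by
      rw [← hh]
      exact ⟨y, hQ hy, rfl⟩
    have hφ : conjHom R h ∈ (groupFusionSystem (S : Subgroup G)).Hom R :=
      ⟨hRS, fun r => hmem r (Subgroup.mem_sup_right r.2), h, fun _ => rfl⟩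
    obtain ⟨α, hα, φ₀, hφ₀, hd⟩ := hfrat R hRS _ hφ
    obtain ⟨-, -, a, ha⟩ := autGroup_mem_hom _ le_rfl hα
    have haS := mem_normalizer_of_conj_eq α ha
    set t := a⁻¹ * (h * x * h⁻¹) * a with ht
    have htS : t ∈ (S : Subgroup G) := by
      simpa [ht, mul_assoc] using (Subgroup.mem_normalizer_iff.1 (inv_mem haS) _).1
        (hmem x (Subgroup.mem_sup_left (Subgroup.mem_zpowers x)))
    have hφ₀S : ∀ r : R, φ₀ r ∈ (S : Subgroup G) := map_mem_S E hφ₀
    have key : ∀ r : R, φ₀ r = a⁻¹ * (h * (r : G) * h⁻¹) * a := fun r => by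
      have h1 := hd r (hφ₀S r)
      have h2 : ((α ⟨φ₀ r, hφ₀S r⟩ : (S : Subgroup G)) : G) = a * φ₀ r * a⁻¹ := ha _
      rw [h2, conjHom_apply] at h1
      rw [h1]
      group
    have hxr : ∀ r : R, x * (r : G) * x⁻¹ ∈ R := fun r =>
      (Subgroup.mem_normalizer_iff.1 hxR _).1 r.2
    have hrange : ∀ y : φ₀.range, t * (y : G) * t⁻¹ ∈ φ₀.range := by
      rintro ⟨_, r, rfl⟩
      refine ⟨⟨x * (r : G) * x⁻¹, hxr r⟩, ?_⟩
      rw [key]
      show _ = t * φ₀ r * t⁻¹
      rw [key, ht]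
      group
    obtain ⟨ψ, hψ, hψ₀⟩ := E.inv_mem hφ₀
    have h1 : ψ.comp ((conjHom φ₀.range t).codRestrict φ₀.range hrange) ∈ E.Hom φ₀.range :=
      E.comp_mem (E.conj_mem (range_le_S E hφ₀) htS) hψ hrange
    refine comp_mem' E hφ₀ h1 (fun r => ⟨r, rfl⟩) fun r => ?_
    rw [conjHom_apply]
    show x * (r : G) * x⁻¹ = ψ ⟨t * φ₀ r * t⁻¹, _⟩
    refine (hψ₀ ⟨x * (r : G) * x⁻¹, hxr r⟩).symm.trans (congrArg ψ (Subtype.ext ?_))
    show φ₀ ⟨x * (r : G) * x⁻¹, hxr r⟩ = t * φ₀ r * t⁻¹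
    rw [key, key, ht]
    group

/-- The elements of `G` that normalize `S` and lie in the subgroup generated by the `p`-elements of the
normalizer of a centric subgroup. -/
def centricGoodSet : Set G :=
  {g | g ∈ Subgroup.normalizer ((S : Subgroup G) : Set G) ∧ ∃ R : Subgroup G,
    (groupFusionSystem (S : Subgroup G)).IsCentric R ∧
    g ∈ Subgroup.closure {x : G | x ∈ Subgroup.normalizer (R : Set G) ∧ ∃ k : ℕ, orderOf x = p ^ k}}

lemma self_subset_centricGoodSet {s : G} (hs : s ∈ (S : Subgroup G)) : s ∈ centricGoodSet S := by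
  refine ⟨Subgroup.le_normalizer hs, S, ⟨le_rfl, fun Q hQ => ?_⟩,
    Subgroup.subset_closure ⟨Subgroup.le_normalizer hs, ?_⟩⟩
  · obtain ⟨e, he⟩ := hQ
    have hQS : Q = (S : Subgroup G) := by
      refine eq_of_le_of_card_le (isConj_le_right ⟨e, he⟩) ?_
      rw [isConj_card_eq ⟨e, he⟩]
    rw [hQS]
    exact inf_le_left
  · obtain ⟨k, hk⟩ := IsPGroup.iff_orderOf.1 S.2 ⟨s, hs⟩
    exact ⟨k, by rwa [Subgroup.orderOf_mk] at hk⟩

/-- A subgroup of `S` containing its centralizer in `G` is centric. -/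
lemma isCentric_of_centralizer_le {R : Subgroup G} (hRS : R ≤ (S : Subgroup G))
    (hC : Subgroup.centralizer (R : Set G) ≤ R) :
    (groupFusionSystem (S : Subgroup G)).IsCentric R := by
  refine ⟨hRS, fun Q hQ => ?_⟩
  obtain ⟨φ, ⟨-, -, g, hg⟩, rfl⟩ := hQ
  intro c hc
  have : g⁻¹ * c * g ∈ R := by
    refine hC fun r hr => ?_
    have h1 : φ ⟨r, hr⟩ * c = c * φ ⟨r, hr⟩ := hc.2 _ ⟨⟨r, hr⟩, rfl⟩
    rw [hg] at h1
    calc r * (g⁻¹ * c * g) = g⁻¹ * ((g * r * g⁻¹) * c) * g := by group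
      _ = g⁻¹ * (c * (g * r * g⁻¹)) * g := by rw [h1]
      _ = g⁻¹ * c * g * r := by group
  exact ⟨⟨_, this⟩, by rw [hg]; group⟩

/-- Simplicity criterion: no proper nontrivial strongly closed subgroup, and `N_G(S)` is generated by
elements in the subgroups generated by the `p`-elements of normalizers of centric subgroups. -/
theorem isSimple_of_centric_generation (hS1 : (S : Subgroup G) ≠ ⊥)
    (ha : ∀ T : Subgroup G, (groupFusionSystem (S : Subgroup G)).StronglyClosed T →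
      T = ⊥ ∨ T = (S : Subgroup G))
    (hgen : Subgroup.normalizer ((S : Subgroup G) : Set G) ≤
      Subgroup.closure (centricGoodSet S)) :
    (groupFusionSystem (S : Subgroup G)).IsSimple p := by
  refine ⟨Cfsg.Agent.S5076.result p S, hS1, fun T E hE => ?_⟩
  obtain ⟨⟨hsat, -, hinv⟩, -⟩ := hE
  rcases ha T hinv.2.1 with hT | hT
  · exact Or.inl hT
  subst hT
  refine Or.inr ⟨rfl, fun P => Set.Subset.antisymm (hinv.1 P) fun φ hφ => ?_⟩
  let N : Subgroup G := ((E.autGroup (S : Subgroup G)).comap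
    (S : Subgroup G).normalizerMonoidHom).map
    (Subgroup.normalizer ((S : Subgroup G) : Set G)).subtype
  have hN : Subgroup.closure (centricGoodSet S) ≤ N := by
    rw [Subgroup.closure_le]
    rintro g ⟨hgS, R, hR, hg⟩
    obtain ⟨hgR, hgE⟩ := conjHom_mem_of_closure' S hinv hR.1 hg
    have := conjHom_top_mem S hsat hinv.1 hgS hR hgR hgE
    exact ⟨⟨g, hgS⟩, (mem_autGroup E le_rfl).2 (mem_hom_congr E this fun x => rfl), rfl⟩
  obtain ⟨hPS, -, -⟩ := id hφ
  obtain ⟨α, hα, φ₀, hφ₀, hd⟩ := hinv.2.2.2 P hPS φ hφ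
  obtain ⟨-, -, a, ha'⟩ := autGroup_mem_hom _ le_rfl hα
  obtain ⟨n, hn, hna⟩ := hN (hgen (mem_normalizer_of_conj_eq α ha'))
  have hα' : α = (S : Subgroup G).normalizerMonoidHom n := by
    ext x
    rw [normalizerMonoidHom_coe, show (n : G) = a from hna]
    exact ha' x
  refine comp_mem' E hφ₀ (autGroup_mem_hom E le_rfl (hα' ▸ hn)) (map_mem_S E hφ₀)
    fun x => hd x _

end Cfsg.Agent.FusionCrit
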